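import Cfsg.Agent.Lib.ToddCox.Glue
set_option autoImplicit false
set_option maxRecDepth 100000
namespace Cfsg.Agent.Lib.ToddCox.SP44C3
def E_0 : ℕ := 0x21000000800000840000020000020800000800000820000020000020400000800000810000020000020000000800000800000020000010800000400000420000010000010400000400000410000010000010000000400000400000010000000c00000000000030000000000000800000000000020000000000000400000000000010000000000000000000000000000000000000010c0000080000083000001000000100000040000044000000
end Cfsg.Agent.Lib.ToddCox.SP44C3
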