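import Cfsg.Agent.Lib.ToddCox.SP44C3.Data
set_option autoImplicit false
set_option maxRecDepth 100000
namespace Cfsg.Agent.Lib.ToddCox.SP44C3
theorem wordsGood : allBelow (wordsOK W (relR Rb inv) inv sp) nW 3 = true := by decide +kernel
theorem d0 : allBits (fun k => bif Nat.blt k 2 then chkDef Eo inv k else true) 13 0 = true := by decide +kernel
theorem s0 : chkStream Eo inv W isH 11 2 0x400000000000580000040000060000060000010000040000006000005000001000003800000600000400000100000300000060000030000000000024000002000002000000000001c0000020000010000000000014000002000000fffffffffffffffffffffffff = true := by decide +kernel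
theorem c0 : Covered Eo inv W isH 2 13 := covered_of_stream 11 2 _ s0
theorem l0 : chkPoints Eo cF (2 * nEv) N ys 3 0 0x32000002000001800000400002e00000200000a80000080000260000020000008000000000004000002000008800000400001e000001000006800000400000000000100000500000000000100000000000030000000000008000000 = true := by decide +kernel
theorem k0 : LinksOK Eo cF (2 * nEv) N ys 0 3 := linksOK_of_points 3 0 _ l0
end Cfsg.Agent.Lib.ToddCox.SP44C3
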